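import Cfsg.Agent.H65.Ore.Prd
import Cfsg.Agent.Characters.Central
import Cfsg.Agent.Characters.Values

/-!
# Products of two and three classes: the trivial sieve (helper471)

* `prd_of_min` : all nontrivial irreducible characters have degree at least `d` and
  `(|C(x)| - 1) (|C(y)| - 1) (|C(g)| - 1) < d²`: then `g` is a product of a conjugate of `x` and a conjugate of `y`;
* `three_of_min` : `(|C(x)| - 1) (|C(y)| - 1) (|C(w)| - 1) < d²`: every `g` is a product of conjugates of `x`, `y`, `w`.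
-/

set_option autoImplicit false

namespace Cfsg.Agent.H471.TC

open Cfsg Cfsg.Agent.Characters Cfsg.Agent.H65.Ore
open scoped ComplexConjugate

universe u

variable {G : Type u} [Group G] [Finite G] [Fintype (IrrCharacter G)]

omit [Fintype (IrrCharacter G)] in
theorem cent_pos (g : G) : (0 : ℝ) ≤ (Nat.card (Subgroup.centralizer ({g} : Set G)) : ℝ) - 1 := by
  have : 1 ≤ Nat.card (Subgroup.centralizer ({g} : Set G)) := Nat.card_pos
  have : (1 : ℝ) ≤ (Nat.card (Subgroup.centralizer ({g} : Set G)) : ℝ) := by exact_mod_cast this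
  linarith

/-- the fourth moment -/
theorem sum_sq_mul_sq [DecidableEq (IrrCharacter G)] (x y : G) :
    ∑ χ ∈ Finset.univ.erase (one1 G), (‖(χ : G → ℂ) x‖ * ‖(χ : G → ℂ) y‖) ^ 2 ≤
      ((Nat.card (Subgroup.centralizer ({x} : Set G)) : ℝ) - 1) *
        ((Nat.card (Subgroup.centralizer ({y} : Set G)) : ℝ) - 1) := by
  rw [← sum_erase_sq x, ← sum_erase_sq y, Finset.sum_mul]
  refine Finset.sum_le_sum fun χ hχ => ?_
  rw [mul_pow]
  refine mul_le_mul_of_nonneg_left ?_ (by positivity)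
  exact Finset.single_le_sum (f := fun χ : IrrCharacter G => ‖(χ : G → ℂ) y‖ ^ 2) (fun _ _ => by positivity) hχ

/-- **The trivial sieve for two classes.** -/
theorem prd_of_min {x y g : G} {d : ℕ} (hd0 : 0 < d)
    (hd : ∀ χ : IrrCharacter G, (χ : G → ℂ) ≠ 1 → (d : ℝ) ≤ ‖(χ : G → ℂ) 1‖)
    (h : (Nat.card (Subgroup.centralizer ({x} : Set G)) - 1) * (Nat.card (Subgroup.centralizer ({y} : Set G)) - 1) *
      (Nat.card (Subgroup.centralizer ({g} : Set G)) - 1) < d ^ 2) : Prd x y g := by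
  classical
  refine prd_of_sieve (d := d) (by exact_mod_cast hd0) (fun χ hχ _ _ => hd χ hχ) ?_
  rw [← Finset.add_sum_erase Finset.univ _ (Finset.mem_univ (one1 G))]
  simp only [one1_apply, norm_one, mul_one, one_pow, add_sub_cancel_left]
  refine lt_of_le_of_lt (mul_le_mul_of_nonneg_right (sum_sq_mul_sq x y) (cent_pos g)) ?_
  have key : ∀ t : G, ((Nat.card (Subgroup.centralizer ({t} : Set G)) - 1 : ℕ) : ℝ) =
      (Nat.card (Subgroup.centralizer ({t} : Set G)) : ℝ) - 1 := fun t => by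
    have : 1 ≤ Nat.card (Subgroup.centralizer ({t} : Set G)) := Nat.card_pos
    push_cast [this]
    ring
  rw [← key, ← key, ← key]
  exact_mod_cast h

/-- a triple product formula: no solution implies that the sum vanishes -/
theorem exists_three_of_ne_zero {x y w g : G}
    (h : ∑ χ : IrrCharacter G, (χ : G → ℂ) x * (χ : G → ℂ) y * (χ : G → ℂ) w * conj ((χ : G → ℂ) g) /
      ((χ : G → ℂ) 1) ^ 2 ≠ 0) :
    ∃ u v t : G, g = (u * x * u⁻¹) * (v * y * v⁻¹) * (t * w * t⁻¹) := by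
  classical
  have := Fintype.ofFinite G
  by_contra hno
  push Not at hno
  apply h
  have hG : (Nat.card G : ℂ) ≠ 0 := by exact_mod_cast Nat.card_pos.ne'
  -- for every `t`
  have h1 : ∀ t : G, ∑ χ : IrrCharacter G, (χ : G → ℂ) x * (χ : G → ℂ) y *
      conj ((χ : G → ℂ) (t * w⁻¹ * t⁻¹ * g)) / (χ : G → ℂ) 1 = 0 := by
    intro t
    by_contra h2
    obtain ⟨a, b, h3⟩ := prd_of_ne_zero h2
    -- `t w⁻¹ t⁻¹ g = x^a y^b`
    refine hno a b ((a * x * a⁻¹ * (b * y * b⁻¹))⁻¹ * t) ?_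
    have h4 : g = (t * w * t⁻¹) * (a * x * a⁻¹ * (b * y * b⁻¹)) := by rw [← h3]; group
    rw [h4]
    group
  have h2 : ∑ t : G, ∑ χ : IrrCharacter G, (χ : G → ℂ) x * (χ : G → ℂ) y *
      conj ((χ : G → ℂ) (t * w⁻¹ * t⁻¹ * g)) / (χ : G → ℂ) 1 = 0 := Finset.sum_eq_zero fun t _ => h1 t
  rw [Finset.sum_comm] at h2
  have h3 : ∀ χ : IrrCharacter G, ∑ t : G, (χ : G → ℂ) x * (χ : G → ℂ) y *
      conj ((χ : G → ℂ) (t * w⁻¹ * t⁻¹ * g)) / (χ : G → ℂ) 1 =
      (Nat.card G : ℂ) * ((χ : G → ℂ) x * (χ : G → ℂ) y * (χ : G → ℂ) w * conj ((χ : G → ℂ) g) /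
        ((χ : G → ℂ) 1) ^ 2) := by
    intro χ
    obtain ⟨n, hn, hχ1⟩ := Core.isIrr_apply_one χ.2
    have h4 := Central.sum_char_conj_mul χ.2 w⁻¹ g
    have h5 : ∑ t : G, conj ((χ : G → ℂ) (t * w⁻¹ * t⁻¹ * g)) =
        (Nat.card G : ℂ) * (χ : G → ℂ) w * conj ((χ : G → ℂ) g) / (χ : G → ℂ) 1 := by
      rw [← map_sum, h4]
      simp only [map_div₀, map_mul, map_natCast]
      rw [Core.isCharacter_apply_inv (Core.isIrr_isCharacter χ.2), Complex.conj_conj, hχ1, map_natCast]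
    have h6 : ∀ t : G, (χ : G → ℂ) x * (χ : G → ℂ) y * conj ((χ : G → ℂ) (t * w⁻¹ * t⁻¹ * g)) / (χ : G → ℂ) 1 =
        ((χ : G → ℂ) x * (χ : G → ℂ) y / (χ : G → ℂ) 1) * conj ((χ : G → ℂ) (t * w⁻¹ * t⁻¹ * g)) := fun t => by ring
    simp only [h6]
    rw [← Finset.mul_sum, h5]
    ring
  simp only [h3] at h2
  rw [← Finset.mul_sum] at h2
  exact (mul_eq_zero.1 h2).resolve_left hG

/-- **The trivial sieve for three classes.** -/
theorem three_of_min {x y w : G} {d : ℕ} (hd0 : 0 < d)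
    (hd : ∀ χ : IrrCharacter G, (χ : G → ℂ) ≠ 1 → (d : ℝ) ≤ ‖(χ : G → ℂ) 1‖)
    (h : (Nat.card (Subgroup.centralizer ({x} : Set G)) - 1) * (Nat.card (Subgroup.centralizer ({y} : Set G)) - 1) *
      (Nat.card (Subgroup.centralizer ({w} : Set G)) - 1) < d ^ 2) (g : G) :
    ∃ u v t : G, g = (u * x * u⁻¹) * (v * y * v⁻¹) * (t * w * t⁻¹) := by
  classical
  apply exists_three_of_ne_zero
  intro h0
  rw [← Finset.add_sum_erase Finset.univ _ (Finset.mem_univ (one1 G))] at h0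
  simp only [one1_apply, mul_one, map_one, one_pow, div_one] at h0
  have h1 : ∑ χ ∈ Finset.univ.erase (one1 G), (χ : G → ℂ) x * (χ : G → ℂ) y * (χ : G → ℂ) w *
      conj ((χ : G → ℂ) g) / ((χ : G → ℂ) 1) ^ 2 = -1 := by linear_combination h0
  have h2 := norm_sum_le (Finset.univ.erase (one1 G))
    (fun χ : IrrCharacter G => (χ : G → ℂ) x * (χ : G → ℂ) y * (χ : G → ℂ) w * conj ((χ : G → ℂ) g) /
      ((χ : G → ℂ) 1) ^ 2)
  rw [h1, norm_neg, norm_one] at h2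
  have hd' : (0 : ℝ) < d := by exact_mod_cast hd0
  have h3 : ∀ χ ∈ Finset.univ.erase (one1 G), ‖(χ : G → ℂ) x * (χ : G → ℂ) y * (χ : G → ℂ) w * conj ((χ : G → ℂ) g) /
      ((χ : G → ℂ) 1) ^ 2‖ ≤ (‖(χ : G → ℂ) x‖ * ‖(χ : G → ℂ) y‖) * ‖(χ : G → ℂ) w‖ / d := by
    intro χ hχ
    have h4 := hd χ (coe_ne_one (Finset.ne_of_mem_erase hχ))
    have h5 : ‖(χ : G → ℂ) g‖ ≤ ‖(χ : G → ℂ) 1‖ := by
      obtain ⟨m, ρ, hρ⟩ := Core.isIrr_isCharacter χ.2
      rw [← hρ]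
      have h1 := Values.norm_character_le ρ g
      have h2 : ρ.character 1 = (Module.finrank ℂ (Fin m → ℂ) : ℂ) := Representation.char_one ρ
      rw [h2, Complex.norm_natCast]
      exact h1
    rw [norm_div, norm_mul, norm_mul, norm_mul, Complex.norm_conj, norm_pow]
    have h6 : (0 : ℝ) < ‖(χ : G → ℂ) 1‖ := lt_of_lt_of_le hd' h4
    rw [div_le_div_iff₀ (by positivity) hd']
    have h7 : ‖(χ : G → ℂ) g‖ * d ≤ ‖(χ : G → ℂ) 1‖ ^ 2 := by
      rw [pow_two]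
      exact mul_le_mul h5 h4 hd'.le h6.le
    calc ‖(χ : G → ℂ) x‖ * ‖(χ : G → ℂ) y‖ * ‖(χ : G → ℂ) w‖ * ‖(χ : G → ℂ) g‖ * d
        = (‖(χ : G → ℂ) x‖ * ‖(χ : G → ℂ) y‖ * ‖(χ : G → ℂ) w‖) * (‖(χ : G → ℂ) g‖ * d) := by ring
      _ ≤ _ := mul_le_mul_of_nonneg_left h7 (by positivity)
  have h4 := h2.trans (Finset.sum_le_sum h3)
  rw [← Finset.sum_div, le_div_iff₀ hd', one_mul] at h4
  have h5 := Finset.sum_mul_sq_le_sq_mul_sq (Finset.univ.erase (one1 G))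
    (fun χ : IrrCharacter G => ‖(χ : G → ℂ) x‖ * ‖(χ : G → ℂ) y‖) (fun χ : IrrCharacter G => ‖(χ : G → ℂ) w‖)
  rw [sum_erase_sq] at h5
  have h6 := h5.trans (mul_le_mul_of_nonneg_right (sum_sq_mul_sq x y) (cent_pos w))
  have key : ∀ t : G, ((Nat.card (Subgroup.centralizer ({t} : Set G)) - 1 : ℕ) : ℝ) =
      (Nat.card (Subgroup.centralizer ({t} : Set G)) : ℝ) - 1 := fun t => by
    have : 1 ≤ Nat.card (Subgroup.centralizer ({t} : Set G)) := Nat.card_pos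
    push_cast [this]
    ring
  rw [← key, ← key, ← key] at h6
  have h7 : (((Nat.card (Subgroup.centralizer ({x} : Set G)) - 1) * (Nat.card (Subgroup.centralizer ({y} : Set G)) - 1) *
      (Nat.card (Subgroup.centralizer ({w} : Set G)) - 1) : ℕ) : ℝ) < (d : ℝ) ^ 2 := by exact_mod_cast h
  push_cast at h7
  have h8 : (d : ℝ) ^ 2 ≤ (∑ χ ∈ Finset.univ.erase (one1 G), ‖(χ : G → ℂ) x‖ * ‖(χ : G → ℂ) y‖ * ‖(χ : G → ℂ) w‖) ^ 2 :=
    pow_le_pow_left₀ hd'.le h4 2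
  exact absurd (h8.trans h6) (not_le.2 h7)

end Cfsg.Agent.H471.TC
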